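import Mathlib
import Cfsg.Prelude.Def_Classical
import Cfsg.Prelude.Def_Sporadic

set_option autoImplicit false

/-!
Cubes of odd primes against the two-part of alternating and sporadic orders.
-/

namespace CfsgLib.H29.CubePart

/-- An order, its factorisation and its two-exponent. -/
def rows : List (ℕ × List (ℕ × ℕ) × ℕ) := [
    ⟨7920, [(2, 4), (3, 2), (5, 1), (11, 1)], 4⟩,
    ⟨95040, [(2, 6), (3, 3), (5, 1), (11, 1)], 6⟩,
    ⟨443520, [(2, 7), (3, 2), (5, 1), (7, 1), (11, 1)], 7⟩,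
    ⟨10200960, [(2, 7), (3, 2), (5, 1), (7, 1), (11, 1), (23, 1)], 7⟩,
    ⟨244823040, [(2, 10), (3, 3), (5, 1), (7, 1), (11, 1), (23, 1)], 10⟩,
    ⟨175560, [(2, 3), (3, 1), (5, 1), (7, 1), (11, 1), (19, 1)], 3⟩,
    ⟨604800, [(2, 7), (3, 3), (5, 2), (7, 1)], 7⟩,
    ⟨50232960, [(2, 7), (3, 5), (5, 1), (17, 1), (19, 1)], 7⟩,
    ⟨86775571046077562880, [(2, 21), (3, 3), (5, 1), (7, 1), (11, 3), (23, 1), (29, 1), (31, 1), (37, 1), (43, 1)], 21⟩,
    ⟨4157776806543360000, [(2, 21), (3, 9), (5, 4), (7, 2), (11, 1), (13, 1), (23, 1)], 21⟩,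
    ⟨42305421312000, [(2, 18), (3, 6), (5, 3), (7, 1), (11, 1), (23, 1)], 18⟩,
    ⟨495766656000, [(2, 10), (3, 7), (5, 3), (7, 1), (11, 1), (23, 1)], 10⟩,
    ⟨64561751654400, [(2, 17), (3, 9), (5, 2), (7, 1), (11, 1), (13, 1)], 17⟩,
    ⟨4089470473293004800, [(2, 18), (3, 13), (5, 2), (7, 1), (11, 1), (13, 1), (17, 1), (23, 1)], 18⟩,
    ⟨1255205709190661721292800, [(2, 21), (3, 16), (5, 2), (7, 3), (11, 1), (13, 1), (17, 1), (23, 1), (29, 1)], 21⟩,
    ⟨44352000, [(2, 9), (3, 2), (5, 3), (7, 1), (11, 1)], 9⟩,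
    ⟨898128000, [(2, 7), (3, 6), (5, 3), (7, 1), (11, 1)], 7⟩,
    ⟨4030387200, [(2, 10), (3, 3), (5, 2), (7, 3), (17, 1)], 10⟩,
    ⟨145926144000, [(2, 14), (3, 3), (5, 3), (7, 1), (13, 1), (29, 1)], 14⟩,
    ⟨448345497600, [(2, 13), (3, 7), (5, 2), (7, 1), (11, 1), (13, 1)], 13⟩,
    ⟨460815505920, [(2, 9), (3, 4), (5, 1), (7, 3), (11, 1), (19, 1), (31, 1)], 9⟩,
    ⟨273030912000000, [(2, 14), (3, 6), (5, 6), (7, 1), (11, 1), (19, 1)], 14⟩,
    ⟨51765179004000000, [(2, 8), (3, 7), (5, 6), (7, 1), (11, 1), (31, 1), (37, 1), (67, 1)], 8⟩,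
    ⟨90745943887872000, [(2, 15), (3, 10), (5, 3), (7, 2), (13, 1), (19, 1), (31, 1)], 15⟩,
    ⟨4154781481226426191177580544000000, [(2, 41), (3, 13), (5, 6), (7, 2), (11, 1), (13, 1), (17, 1), (19, 1), (23, 1), (31, 1), (47, 1)], 41⟩,
    ⟨808017424794512875886459904961710757005754368000000000, [(2, 46), (3, 20), (5, 9), (7, 6), (11, 2), (13, 3), (17, 1), (19, 1), (23, 1), (29, 1), (31, 1), (41, 1), (47, 1), (59, 1), (71, 1)], 46⟩]

theorem rows_ok : ∀ r ∈ rows, r.1 = (r.2.1.map fun x => x.1 ^ x.2).prod ∧ 2 ^ r.2.2 ∣ r.1 ∧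
    ∀ x ∈ r.2.1, (2 ≤ x.1 ∧ x.1 ≤ 71) ∧ (x.1 = 2 ∨ ¬ x.1 ^ 3 ∣ r.1 ∨ x.1 ^ 4 ∣ r.1 ∨ x.1 ^ 3 < 2 ^ r.2.2) := by
  decide +kernel

theorem small_prime : ∀ q < 72, 2 ≤ q → ∀ p < 72, 2 ≤ p → p ∣ q → Nat.Prime p → Nat.Prime q → p = q :=
  fun q _ _ p _ _ h hp hq => (Nat.prime_dvd_prime_iff_eq hp hq).mp h

theorem rows_prime : ∀ r ∈ rows, ∀ x ∈ r.2.1, Nat.Prime x.1 := by
  decide +kernel

theorem of_row {N p : ℕ} {r : ℕ × List (ℕ × ℕ) × ℕ} (hr : r ∈ rows) (hN : N = r.1) (hp : p.Prime)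
    (hodd : p ≠ 2) (h3 : N.factorization p = 3) : p ^ 3 < 2 ^ N.factorization 2 := by
  obtain ⟨hprod, h2, hx⟩ := rows_ok r hr
  have hN0 : N ≠ 0 := fun h => by rw [h] at h3; simp at h3
  have hd : p ∣ N := (hp.dvd_iff_one_le_factorization hN0).mpr (by omega)
  rw [hN, hprod, Prime.dvd_prod_iff hp.prime] at hd
  obtain ⟨y, hy, hpy⟩ := hd
  obtain ⟨x, hxm, rfl⟩ := List.mem_map.mp hy
  obtain rfl : p = x.1 := (Nat.prime_dvd_prime_iff_eq hp (rows_prime r hr x hxm)).mp (hp.dvd_of_dvd_pow hpy)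
  have hk : r.2.2 ≤ N.factorization 2 :=
    (Nat.prime_two.pow_dvd_iff_le_factorization hN0).mp (hN ▸ h2)
  rcases (hx x hxm).2 with h | h | h | h
  · exact absurd h hodd
  · exact absurd ((hp.pow_dvd_iff_le_factorization hN0).mpr h3.ge) (hN ▸ h)
  · have := (hp.pow_dvd_iff_le_factorization hN0).mp (hN ▸ h)
    omega
  · exact lt_of_lt_of_le h (Nat.pow_le_pow_right two_pos hk)

theorem cube_lt_pow : ∀ m : ℕ, 5 ≤ m → m ^ 3 < 2 ^ (2 * m - 1) := by
  intro m hm
  induction m, hm using Nat.le_induction with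
  | base => norm_num
  | succ k hk ih =>
    rw [show 2 * (k + 1) - 1 = (2 * k - 1) + 2 by omega, pow_add]
    have : (k + 1) ^ 3 ≤ 4 * k ^ 3 := by nlinarith [Nat.mul_le_mul_right (k * k) hk, Nat.mul_le_mul_right k hk]
    omega

theorem alt_case {n p : ℕ} (hn : 5 ≤ n) (hp : p.Prime) (hodd : p ≠ 2)
    (h3 : (Nat.card (alternatingGroup (Fin n))).factorization p = 3) :
    p ^ 3 < 2 ^ (Nat.card (alternatingGroup (Fin n))).factorization 2 := by
  have hcard : Nat.card (alternatingGroup (Fin n)) = n.factorial / 2 := by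
    have : Nontrivial (Fin n) := Fin.nontrivial_iff_two_le.mpr (by omega)
    rw [nat_card_alternatingGroup, Nat.card_fin]
  have hd : 2 ∣ n.factorial := Nat.dvd_factorial two_pos (by omega)
  have hf : ∀ q : ℕ, q.Prime → (n.factorial / 2).factorization q + (if q = 2 then 1 else 0) =
      n.factorial.factorization q := fun q hq => by
    have := (Nat.prime_two.factorization)
    rw [Nat.factorization_div hd, this]
    by_cases hq2 : q = 2
    · subst hq2
      have := (Nat.prime_two.dvd_iff_one_le_factorization n.factorial_ne_zero).mp hd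
      simp; omega
    · simp [hq2, Ne.symm hq2]
  have hpp := hf p hp
  rw [hcard] at h3 ⊢
  rw [if_neg hodd, add_zero, h3] at hpp
  have h2' := hf 2 Nat.prime_two
  rw [if_pos rfl] at h2'
  have e2 : ∀ q : ℕ, q.Prime → n.factorial.factorization q =
      ∑ i ∈ Finset.Ico 1 (n + 1), n / q ^ i := fun q hq => by
    have := Fact.mk hq
    rw [Nat.factorization_def _ hq, padicValNat_factorial (Nat.lt_succ_of_le (Nat.log_le_self q n))]
  by_cases hp3 : p = 3
  · subst hp3
    exfalso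
    have h9 : n ≤ 8 := by
      by_contra hlt
      have := e2 3 Nat.prime_three
      have hle : n / 3 ^ 1 + n / 3 ^ 2 ≤ ∑ i ∈ Finset.Ico 1 (n + 1), n / 3 ^ i := by
        rw [← Finset.sum_pair (f := fun i => n / 3 ^ i) (show (1 : ℕ) ≠ 2 by norm_num)]
        exact Finset.sum_le_sum_of_subset (by intro i; simp; omega)
      norm_num at hle
      omega
    have := e2 3 Nat.prime_three
    rw [← hpp] at this
    interval_cases n <;> revert this <;> decide
  · have hp5 : 5 ≤ p := by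
      have := hp.two_le
      by_contra
      interval_cases p <;> first | omega | exact absurd hp (by norm_num)
    have hn3 : 3 * p ≤ n := by
      by_contra hlt
      have hsum := e2 p hp
      rw [← hpp, Finset.sum_eq_single 1] at hsum
      · rw [pow_one] at hsum
        have := Nat.div_mul_le_self n p
        rw [← hsum] at this
        omega
      · intro i hi hi1
        rw [Finset.mem_Ico] at hi
        apply Nat.div_eq_of_lt
        calc n < p * p := lt_of_lt_of_le (not_le.mp hlt) (Nat.mul_le_mul_right p (by omega))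
          _ = p ^ 2 := (pow_two p).symm
          _ ≤ p ^ i := Nat.pow_le_pow_right hp.pos (by omega)
      · intro h; exact absurd (Finset.mem_Ico.mpr ⟨le_rfl, by omega⟩) h
    have hle : n / 2 ^ 1 + n / 2 ^ 2 ≤ n.factorial.factorization 2 := by
      rw [e2 2 Nat.prime_two, ← Finset.sum_pair (f := fun i => n / 2 ^ i) (show (1 : ℕ) ≠ 2 by norm_num)]
      exact Finset.sum_le_sum_of_subset (by intro i; simp; omega)
    norm_num at hle
    exact lt_of_lt_of_le (cube_lt_pow p hp5) (Nat.pow_le_pow_right two_pos (by omega))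

theorem main {G : Type*} [Group G] (hG : Cfsg.IsAlternating G ∨ Cfsg.IsSporadic G)
    (p : ℕ) (hp : p.Prime) (hodd : p ≠ 2) (h3 : (Nat.card G).factorization p = 3) :
    p ^ 3 < 2 ^ (Nat.card G).factorization 2 := by
  rcases hG with ⟨n, hn, ⟨e⟩⟩ | hG
  · rw [Nat.card_congr e.toEquiv] at h3 ⊢
    exact alt_case hn hp hodd h3
  · rcases hG with h | h | h | h | h | h | h | h | h | h | h | h | h | h | h | h | h | h | h | h | h | h | h | h | h | h
    · exact of_row (r := rows[0]) (by decide) h.2 hp hodd h3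
    · exact of_row (r := rows[1]) (by decide) h.2 hp hodd h3
    · exact of_row (r := rows[2]) (by decide) h.2 hp hodd h3
    · exact of_row (r := rows[3]) (by decide) h.2 hp hodd h3
    · exact of_row (r := rows[4]) (by decide) h.2 hp hodd h3
    · exact of_row (r := rows[5]) (by decide) h.2 hp hodd h3
    · exact of_row (r := rows[6]) (by decide) h.2 hp hodd h3
    · exact of_row (r := rows[7]) (by decide) h.2 hp hodd h3
    · exact of_row (r := rows[8]) (by decide) h.2 hp hodd h3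
    · exact of_row (r := rows[9]) (by decide) h.2 hp hodd h3
    · exact of_row (r := rows[10]) (by decide) h.2 hp hodd h3
    · exact of_row (r := rows[11]) (by decide) h.2 hp hodd h3
    · exact of_row (r := rows[12]) (by decide) h.2 hp hodd h3
    · exact of_row (r := rows[13]) (by decide) h.2 hp hodd h3
    · exact of_row (r := rows[14]) (by decide) h.2 hp hodd h3
    · exact of_row (r := rows[15]) (by decide) h.2 hp hodd h3
    · exact of_row (r := rows[16]) (by decide) h.2 hp hodd h3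
    · exact of_row (r := rows[17]) (by decide) h.2 hp hodd h3
    · exact of_row (r := rows[18]) (by decide) h.2 hp hodd h3
    · exact of_row (r := rows[19]) (by decide) h.2 hp hodd h3
    · exact of_row (r := rows[20]) (by decide) h.2 hp hodd h3
    · exact of_row (r := rows[21]) (by decide) h.2 hp hodd h3
    · exact of_row (r := rows[22]) (by decide) h.2 hp hodd h3
    · exact of_row (r := rows[23]) (by decide) h.2 hp hodd h3
    · exact of_row (r := rows[24]) (by decide) h.2 hp hodd h3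
    · exact of_row (r := rows[25]) (by decide) h.2 hp hodd h3

end CfsgLib.H29.CubePart
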